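import Cfsg.Agent.H18.Monster.Held
import Cfsg.Agent.H18.LargeStructure
import Cfsg.Agent.H18.LargeQuotient
import Cfsg.Agent.H51.Quasisimple
import Cfsg.Agent.H58.LayerBasic

/-!
In a group of Monster type the fixed part of `Q` lies in the layer of the centralizer of an element
of order 7 in standard position.
-/

set_option autoImplicit false

namespace Cfsg.Agent.H65.Monster

open Cfsg.Agent.H14 Cfsg.Agent.H18 Cfsg.Agent.H18.Monster Cfsg.Agent.H18.Monster.Data
open Cfsg.Agent.H18.Monster.Data.Seven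

variable {G : Type*} [Group G] [Finite G] {z : G}
  {Q : Subgroup (Subgroup.centralizer ({z} : Set G))} [Q.Normal] {D : Data z Q} {b : G}
  (S : Seven D b)

local notation "CB" => Subgroup.centralizer ((Subgroup.zpowers b : Subgroup G) : Set G)

/-- An element of the fixed part in the centralizer of `b`. -/
def inC (r : S.qFix) : CB :=
  ⟨((r : cen b z) : G), mem_cent.2 (Subgroup.mem_centralizer_singleton_iff.1 (r : cen b z).2.2)⟩

theorem inC_mul (r u : S.qFix) : inC S (r * u) = inC S r * inC S u := rfl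

include S in
theorem inC_zF : inC S S.zF = ⟨z, mem_cent.2 S.hzb.symm⟩ := rfl

variable [hn : ((Subgroup.zpowers b).subgroupOf
  (Subgroup.centralizer ((Subgroup.zpowers b : Subgroup G) : Set G))).Normal]

/-- The fixed part in the quotient. -/
noncomputable def bigR : Subgroup (NQ b) :=
  S.R.map (Subgroup.centralizer ({S.zbar} : Set (NQ b))).subtype

theorem bar_mem (r : S.qFix) : (QuotientGroup.mk (inC S r) : NQ b) ∈ bigR S :=
  ⟨S.proj (r : cen b z), ⟨_, r.2, rfl⟩, rfl⟩

theorem exists_of_mem {x : NQ b} (hx : x ∈ bigR S) :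
    ∃ r : S.qFix, x = QuotientGroup.mk (inC S r) := by
  obtain ⟨-, ⟨a, ha, rfl⟩, rfl⟩ := hx
  exact ⟨⟨a, ha⟩, rfl⟩

theorem bar_inj {r u : S.qFix}
    (h : (QuotientGroup.mk (inC S r) : NQ b) = QuotientGroup.mk (inC S u)) : r = u :=
  S.proj_inj (Subtype.ext h)

theorem bar_zF : (QuotientGroup.mk (inC S S.zF) : NQ b) = S.zbar := rfl

theorem bigR_comm {x : NQ b} (hx : x ∈ bigR S) : x * S.zbar = S.zbar * x := by
  obtain ⟨a, -, rfl⟩ := hx
  exact Subgroup.mem_centralizer_singleton_iff.1 a.2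

theorem bigR_cent {x : NQ b} (hx : ∀ q ∈ bigR S, q * x = x * q) : x = 1 ∨ x = S.zbar := by
  have hz := hx _ (bar_mem S S.zF)
  rw [bar_zF] at hz
  have hxC : x ∈ Subgroup.centralizer ({S.zbar} : Set (NQ b)) :=
    Subgroup.mem_centralizer_singleton_iff.2 hz.symm
  have hR := S.centralizer_R_le (x := ⟨x, hxC⟩) (Subgroup.mem_centralizer_iff.2 fun q hq =>
    Subtype.ext (hx _ ⟨q, hq, rfl⟩))
  obtain ⟨r, rfl⟩ := exists_of_mem S (x := x) ⟨⟨x, hxC⟩, hR, rfl⟩
  have hc : r ∈ Subgroup.center S.qFix := Subgroup.mem_center_iff.2 fun u => bar_inj S (by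
    rw [inC_mul, inC_mul, QuotientGroup.mk_mul, QuotientGroup.mk_mul]
    exact hx _ (bar_mem S u))
  rcases (S.qFix_center r).1 hc with rfl | rfl
  · exact Or.inl rfl
  · exact Or.inr rfl

theorem bigR_center :
    (Subgroup.center ↥(bigR S)).map (bigR S).subtype = Subgroup.zpowers S.zbar := by
  have hz2 : S.zbar * S.zbar = 1 := by
    rw [← pow_two, ← S.setting.1, pow_orderOf_eq_one]
  ext x
  rw [mem_centerMap_iff, mem_zpowers_iff_pair hz2]
  constructor
  · rintro ⟨-, h⟩; exact bigR_cent S h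
  · rintro (rfl | rfl)
    · exact ⟨one_mem _, fun y _ => by rw [mul_one, one_mul]⟩
    · exact ⟨bar_zF S ▸ bar_mem S S.zF, fun y hy => bigR_comm S hy⟩

theorem bigR_large : Cfsg.IsLargeExtraspecial (bigR S) := by
  have hsub := Subgroup.subtype_injective (Subgroup.centralizer ({S.zbar} : Set (NQ b)))
  obtain ⟨ho, -, hE, hcard, g, ⟨hgC, hgR⟩, hne⟩ := S.setting
  refine large_of_conjugate (z := S.zbar) (g := g)
    (extraspecial_of_equiv (S.R.equivMapOfInjective _ hsub) hE) ?_ ?_
    (bar_zF S ▸ bar_mem S S.zF) (fun x hx => bigR_cent S hx) (fun x hx => bigR_comm S hx) ?_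
    ⟨⟨_, hgC⟩, hgR, rfl⟩ hne
  · rw [bigR, Subgroup.card_map_of_injective hsub, hcard]; norm_num
  · intro e; rw [e, orderOf_one] at ho; omega
  · rintro a ha q ⟨q', hq', rfl⟩
    haveI := S.R_normal
    exact ⟨⟨a, Subgroup.mem_centralizer_singleton_iff.2 ha⟩ * q' *
      (⟨a, Subgroup.mem_centralizer_singleton_iff.2 ha⟩)⁻¹,
      (inferInstance : S.R.Normal).conj_mem _ hq' _, rfl⟩

/-- The normal closure of the central involution. -/
def simM : Subgroup (NQ b) := Subgroup.normalClosure ({S.zbar} : Set (NQ b))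

instance simM_normal : (simM S).Normal := Subgroup.normalClosure_normal

theorem unit_conj (j : Fin 6) :
    IsConj S.zbar (QuotientGroup.mk (inC S (S.sec (Held.unit6 j))) : NQ b) :=
  (S.isConj_bar_iff _).2 ((S.conj_code_iff _).2 (by
    rw [S.cd_sec]; revert j; decide +kernel)).1

theorem unit_mem (j : Fin 6) :
    (QuotientGroup.mk (inC S (S.sec (Held.unit6 j))) : NQ b) ∈ simM S := by
  obtain ⟨c, hc⟩ := isConj_iff.1 (unit_conj S j)
  rw [← hc]
  exact (simM_normal S).conj_mem _ (Subgroup.subset_normalClosure (Set.mem_singleton _)) c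

theorem not_comm : ∃ i j : Fin 6, S.sec (Held.unit6 i) * S.sec (Held.unit6 j) ≠
    S.sec (Held.unit6 j) * S.sec (Held.unit6 i) := by
  obtain ⟨j, hj⟩ := Held.rep_pairing (Held.unit6 0) (by decide +kernel)
  refine ⟨0, j, fun h => hj ?_⟩
  have h' := (S.qOf_commute_iff _ _).1 h
  obtain ⟨t, ht, et⟩ := Held.congr_of_code (S.fixV_vec (S.sec (Held.unit6 0))) (Held.fixV_rep _)
    ((S.cd_sec _).trans (Held.code_rep _).symm)
  obtain ⟨s, hs, es⟩ := Held.congr_of_code (S.fixV_vec (S.sec (Held.unit6 j))) (Held.fixV_rep _)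
    ((S.cd_sec _).trans (Held.code_rep _).symm)
  exact Held.dvd_of_congr (S.fixV_vec _).1 (S.fixV_vec _).1 (Held.fixV_rep _).1 ht hs et es h'

theorem zbar_notMem_pCore : S.zbar ∉ Cfsg.pCore 2 (NQ b) := by
  intro h
  obtain ⟨i, j, hne⟩ := not_comm S
  obtain ⟨hab, -⟩ := structure_of_mem_pCore (bigR_large S) (bigR_center S) h
  refine hne (bar_inj S ?_)
  rw [inC_mul, inC_mul, QuotientGroup.mk_mul, QuotientGroup.mk_mul]
  exact congrArg Subtype.val
    (hab.is_comm.comm (⟨_, unit_mem S i⟩ : simM S) ⟨_, unit_mem S j⟩)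

theorem simM_simple : IsSimpleGroup ↥(simM S) ∧ ¬ IsMulCommutative ↥(simM S) := by
  rcases structure_of_not_mem_pCore (bigR_large S) (bigR_center S) (zbar_notMem_pCore S)
    (simM S) rfl with ⟨_, h1, h2⟩ | ⟨_, _, _, _, _, _, _, _, _, _, _, _, _, h⟩
  · exact ⟨h1, h2⟩
  · exact absurd (by rw [bigR, ← S.pCore_eq_R]) h

theorem bar_mem_simM (r : S.qFix) : (QuotientGroup.mk (inC S r) : NQ b) ∈ simM S := by
  have hz : (QuotientGroup.mk (inC S S.zF) : NQ b) ∈ simM S :=
    Subgroup.subset_normalClosure (Set.mem_singleton _)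
  have hsec : ∀ r : S.qFix, (QuotientGroup.mk (inC S r) : NQ b) ∈ simM S →
      (QuotientGroup.mk (inC S (S.sec (S.cd r))) : NQ b) ∈ simM S := by
    intro r hr
    rcases S.cd_fibre r with e | e
    · rwa [← e]
    · rw [e, inC_mul, QuotientGroup.mk_mul] at hr
      exact (Subgroup.mul_mem_cancel_right _ hz).1 hr
  have hsum : ∀ s : Finset (Fin 6), ∀ c : Held.Code,
      (QuotientGroup.mk (inC S (S.sec (∑ j ∈ s, c j • Held.unit6 j))) : NQ b) ∈ simM S := by
    intro s c
    induction s using Finset.induction_on with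
    | empty =>
      have h1 : (QuotientGroup.mk (inC S (1 : S.qFix)) : NQ b) ∈ simM S := one_mem _
      have := hsec 1 h1
      rwa [S.cd_eq_zero.2 (Or.inl rfl), ← Finset.sum_empty (f := fun j => c j • Held.unit6 j)]
        at this
    | insert a s ha ih =>
      rw [Finset.sum_insert ha]
      rcases (by decide : ∀ v : ZMod 2, v = 0 ∨ v = 1) (c a) with e | e
      · rw [e, zero_smul, zero_add]; exact ih
      · rw [e, one_smul]
        have := hsec (S.sec (Held.unit6 a) * S.sec (∑ j ∈ s, c j • Held.unit6 j)) (by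
          rw [inC_mul, QuotientGroup.mk_mul]; exact mul_mem (unit_mem S a) ih)
        rwa [S.cd_mul, S.cd_sec, S.cd_sec] at this
  have := hsum Finset.univ (S.cd r)
  rw [Held.code_eq_sum] at this
  rcases S.cd_fibre r with e | e
  · rwa [← e] at this
  · rw [e, inC_mul, QuotientGroup.mk_mul]; exact mul_mem this hz

/-- The fixed part lies in the layer of the centralizer of `b`. -/
theorem inC_mem_layer (r : S.qFix) : inC S r ∈ Cfsg.layer ↥CB := by
  obtain ⟨hs, hna⟩ := simM_simple S
  set π := QuotientGroup.mk' ((Subgroup.zpowers b).subgroupOf CB) with hπ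
  set P : Subgroup ↥CB := (simM S).comap π with hP
  haveI : P.Normal := (simM_normal S).comap π
  set f : P →* simM S := π.subgroupComap (simM S) with hf
  have hfs : Function.Surjective f := fun m => by
    obtain ⟨x, hx⟩ := QuotientGroup.mk'_surjective ((Subgroup.zpowers b).subgroupOf CB) (m : NQ b)
    exact ⟨⟨x, show π x ∈ simM S by rw [hx]; exact m.2⟩, Subtype.ext hx⟩
  have hker : f.ker = Subgroup.center P := by
    refine le_antisymm ?_ ?_
    · intro x hx
      have hxb : ((x : CB) : G) ∈ Subgroup.zpowers b := by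
        have : π (x : CB) = 1 := congrArg Subtype.val hx
        rwa [hπ, QuotientGroup.mk'_apply, QuotientGroup.eq_one_iff, Subgroup.mem_subgroupOf] at this
      refine Subgroup.mem_center_iff.2 fun y => Subtype.ext (Subtype.ext ?_)
      exact (Subgroup.mem_centralizer_iff.1 (y : CB).2 _ hxb).symm
    · intro x hx
      have hc : f x ∈ Subgroup.center (simM S) := Subgroup.mem_center_iff.2 fun m => by
        obtain ⟨y, rfl⟩ := hfs m
        rw [← map_mul, ← map_mul, Subgroup.mem_center_iff.1 hx y]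
      haveI := hs
      rw [Cfsg.Agent.H51.center_eq_bot_of_isSimpleGroup hna, Subgroup.mem_bot] at hc
      exact hc
  let e : P ⧸ Subgroup.center P ≃* simM S :=
    (QuotientGroup.quotientMulEquivOfEq hker.symm).trans
      (QuotientGroup.quotientKerEquivOfSurjective f hfs)
  haveI := hs
  obtain ⟨hsup, hq⟩ := Cfsg.Agent.H51.isQuasisimple_commutator_of_simple_quotient_center
    (X := P) (MulEquiv.isSimpleGroup e) (fun hc => hna ⟨⟨fun a a' => by
      obtain ⟨x, rfl⟩ := e.surjective a
      obtain ⟨y, rfl⟩ := e.surjective a'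
      rw [← map_mul, ← map_mul, hc.is_comm.comm x y]⟩⟩)
  set K : Subgroup ↥CB := (commutator P).map P.subtype with hK
  have hKn : K.Normal := by
    rw [hK, _root_.commutator_def, Subgroup.map_commutator, ← MonoidHom.range_eq_map,
      Subgroup.range_subtype]
    exact Subgroup.commutator_normal P P
  have hcomp : Cfsg.IsComponent K := ⟨Subgroup.Normal.isSubnormal hKn,
    Cfsg.Agent.H58.isQuasisimple_congr
      ((commutator P).equivMapOfInjective P.subtype P.subtype_injective) hq⟩
  have hle : K ≤ Cfsg.layer ↥CB := le_sSup hcomp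
  refine hle ?_
  have hr : inC S r ∈ P := bar_mem_simM S r
  have hmem : (⟨_, hr⟩ : P) ∈ commutator P ⊔ Subgroup.center P := hsup ▸ Subgroup.mem_top _
  rw [Subgroup.mem_sup_of_normal_right] at hmem
  obtain ⟨k, hk, c, hc, e'⟩ := hmem
  have hcf : f c = 1 := by rw [← MonoidHom.mem_ker, hker]; exact hc
  have hcz : π (c : CB) = 1 := congrArg Subtype.val hcf
  have hcb : ((c : CB) : G) ∈ Subgroup.zpowers b := by
    rwa [hπ, QuotientGroup.mk'_apply, QuotientGroup.eq_one_iff, Subgroup.mem_subgroupOf] at hcz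
  have hc7 : c ^ 385 = 1 := by
    obtain ⟨j, hj⟩ := Subgroup.mem_zpowers_iff.1 hcb
    apply Subtype.ext; apply Subtype.ext
    show ((c : CB) : G) ^ 385 = 1
    rw [← hj, ← zpow_natCast, ← zpow_mul, mul_comm, zpow_mul, zpow_natCast,
      show 385 = 7 * 55 from rfl, pow_mul, S.b_pow_seven, one_pow, one_zpow]
  have hr1 : r ^ 128 = 1 := by
    rw [show (128 : ℕ) = Nat.card S.qFix by rw [S.card_qFix]; rfl]
    exact pow_card_eq_one'
  have hr385 : (⟨_, hr⟩ : P) ^ 385 = ⟨_, hr⟩ := by
    apply Subtype.ext; apply Subtype.ext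
    show ((r : cen b z) : G) ^ 385 = ((r : cen b z) : G)
    have h2 : r ^ 385 = r := by
      rw [show 385 = 128 * 3 + 1 from rfl, pow_succ, pow_mul, hr1, one_pow, one_mul]
    exact congrArg (fun u : S.qFix => ((u : cen b z) : G)) h2
  refine ⟨⟨_, hr⟩, ?_, rfl⟩
  rw [← hr385, ← e', (show Commute k c from Subgroup.mem_center_iff.1 hc k).mul_pow, hc7, mul_one]
  exact pow_mem hk _

end Cfsg.Agent.H65.Monster
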