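import Cfsg.Agent.H65.Monster.Swap
import Cfsg.Agent.H65.Monster.Layer

/-!
In a group of Monster type an involution inverting a standard element of order 7 centralizes the
central involution and is not inner on the layer of the centralizer of that element.
-/

set_option autoImplicit false

namespace Cfsg.Agent.H65.Monster

open Cfsg.Agent.H14 Cfsg.Agent.H18 Cfsg.Agent.H18.Monster Cfsg.Agent.H18.Monster.Data
open Cfsg.Agent.H18.Monster.Data.Seven

variable {G : Type*} [Group G] [Finite G] {z : G}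
  {Q : Subgroup (Subgroup.centralizer ({z} : Set G))} [Q.Normal]

/-- A sign change that is not central lifts to an involution. -/
theorem exists_sign_lift (D : Data z Q) {k : Co0} (hk : k ∈ signSub)
    (hkc : (QuotientGroup.mk k : Cfsg.Spor.Co1) ≠ 1) :
    ∃ t : Subgroup.centralizer ({z} : Set G), t * t = 1 ∧
      (QuotientGroup.mk k : Cfsg.Spor.Co1) = D.e (QuotientGroup.mk t) := by
  set q := D.mod.rep (eight oo) with hqd
  have hq : (QuotientGroup.mk q : Q ⧸ Subgroup.center Q) = D.mod.cls (eight oo) := D.mod.mk_rep _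
  obtain ⟨hconj, hne⟩ := (D.isConj_iff_norm64 q).2
    ⟨⟨eight oo, mem_leechLattice_iff.2 (isLeech_eight oo)⟩, sqNorm_eight oo,
      (D.mod.cls_of (isLeech_eight oo)).symm.trans hq.symm⟩
  obtain ⟨g, hg⟩ := isConj_iff.1 hconj
  have h : Std D q g := ⟨hq, hg, hne⟩
  rw [← h.twoLocal_eq] at hk
  obtain ⟨r, hrE, hr⟩ := D.mem_twoLocal.1 hk
  set E := D.F.map (MulAut.conj g).toMonoidHom with hEd
  have hE : SingPt E (g * z * g⁻¹) := D.singPt.conj g
  have hsz : g * z * g⁻¹ ≠ z := by rw [hg]; exact hne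
  set A := D.F ⊓ E with hA
  have hsq : ∀ a ∈ A, a * a = 1 := by
    intro a ha
    rcases D.singPt.pair (D.singPt.sq ha.1) with e | e
    · exact e
    · rcases hE.pair (hE.sq ha.2) with e' | e'
      · exact e'
      · exact absurd (e'.symm.trans e) hsz
  have hab : A ≤ E ⊓ Subgroup.centralizer (A : Set G) := by
    intro a ha
    refine ⟨ha.2, fun c hc => ?_⟩
    have hc2 := hsq _ (mul_mem hc ha)
    have ec : c⁻¹ = c := inv_eq_of_mul_eq_one_right (hsq c hc)
    have ea : a⁻¹ = a := inv_eq_of_mul_eq_one_right (hsq a ha)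
    calc c * a = (c * a)⁻¹ := (inv_eq_of_mul_eq_one_right hc2).symm
      _ = a * c := by rw [mul_inv_rev, ec, ea]
  have hsA : g * z * g⁻¹ ∈ A := ⟨h.hgF, hE.mem⟩
  have hcard := hE.card_mul A inf_le_right hsA
  have hEcard : Nat.card E = 2 ^ 25 := by
    rw [hEd, Subgroup.card_map_of_injective (MulAut.conj g).injective, D.card_F]
  rw [hA, h.card_inter, hEcard] at hcard
  have hCA : E ⊓ Subgroup.centralizer (A : Set G) = A := by
    refine (Subgroup.eq_of_le_of_card_ge hab ?_).symm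
    rw [hA, h.card_inter]
    omega
  have hrA : (r : G) ∉ A := by
    intro hA'
    obtain ⟨q', hq'⟩ := D.mem_F.1 hA'.1
    have hrQ : r ∈ Q := by
      rw [show r = ((q' : Q) : Subgroup.centralizer ({z} : Set G)) from Subtype.ext hq'.symm]
      exact q'.2
    rw [(QuotientGroup.eq_one_iff r).2 hrQ, map_one] at hr
    exact hkc hr
  rcases hE.pair (hE.sq hrE) with hr2 | hr2
  · exact ⟨r, Subtype.ext hr2, hr⟩
  obtain ⟨a, ha, hane⟩ : ∃ a ∈ A, a * (r : G) ≠ (r : G) * a := by
    by_contra hcon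
    push Not at hcon
    exact hrA (hCA ▸ (⟨hrE, hcon⟩ : (r : G) ∈ E ⊓ Subgroup.centralizer (A : Set G)))
  have hcomm : a * (r : G) * a⁻¹ * (r : G)⁻¹ = g * z * g⁻¹ :=
    (hE.pair (hE.comm ha.2 hrE)).resolve_left fun e =>
      hane (by rwa [mul_inv_eq_one, mul_inv_eq_iff_eq_mul] at e)
  obtain ⟨qa, hqa⟩ := D.mem_F.1 ha.1
  refine ⟨r * (qa : Subgroup.centralizer ({z} : Set G)), Subtype.ext ?_, ?_⟩
  · show (r : G) * _ * ((r : G) * _) = 1
    rw [hqa]
    have ea : a⁻¹ = a := inv_eq_of_mul_eq_one_right (hsq a ha)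
    have e1 : a * (r : G) * a = g * z * g⁻¹ * (r : G) := by
      rw [← hcomm, ea]
      group
    calc (r : G) * a * ((r : G) * a) = (r : G) * (a * (r : G) * a) := by group
      _ = (r : G) * (g * z * g⁻¹) * (r : G) := by rw [e1]; group
      _ = g * z * g⁻¹ * ((r : G) * (r : G)) := by rw [hE.comm_x _ hrE]; group
      _ = 1 := by rw [hr2, hE.xx]
  · rw [hr, QuotientGroup.mk_mul, (QuotientGroup.eq_one_iff _).2 qa.2, mul_one]

variable {D : Data z Q} {b : G} (S : Seven D b)
include S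

/-- An element of `C(z)` whose image is a given lattice automorphism. -/
theorem exists_image (k : Co0) : ∃ c : Subgroup.centralizer ({z} : Set G),
    (QuotientGroup.mk k : Cfsg.Spor.Co1) = D.e (QuotientGroup.mk c) := by
  obtain ⟨c, hc⟩ := QuotientGroup.mk_surjective (D.e.symm (QuotientGroup.mk k))
  exact ⟨c, by rw [hc, MulEquiv.apply_symm_apply]⟩

/-- An involution of `C(z)` inverting `b`. -/
theorem exists_inverter : ∃ t : Subgroup.centralizer ({z} : Set G), t * t = 1 ∧
    t * S.bC * t⁻¹ = S.bC⁻¹ ∧ (QuotientGroup.mk invA : Cfsg.Spor.Co1) = D.e (QuotientGroup.mk t) := by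
  set sg : Cfsg.Spor.Co1 := QuotientGroup.mk Held.sigA with hsgd
  set iv : Cfsg.Spor.Co1 := QuotientGroup.mk invA with hivd
  have hsg7 : sg ^ 7 = 1 := by rw [hsgd, ← QuotientGroup.mk_pow, Held.sigA_seven, QuotientGroup.mk_one]
  have hsg1 : sg ≠ 1 := by
    intro e
    have h1 : D.e (QuotientGroup.mk S.bC) = 1 := S.hb.trans e
    rw [MulEquiv.map_eq_one_iff, QuotientGroup.eq_one_iff] at h1
    have h2 : orderOf S.bC ∣ Nat.card Q := by
      have := orderOf_dvd_natCard (⟨S.bC, h1⟩ : Q)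
      rwa [← Subgroup.orderOf_coe] at this
    rw [S.orderC, D.hset.2.2.2.1] at h2
    norm_num at h2
  have hivc : iv * sg = sg ^ 6 * iv := by
    rw [hivd, hsgd, ← QuotientGroup.mk_mul, invA_conj, QuotientGroup.mk_mul, QuotientGroup.mk_pow]
  obtain ⟨c, hc⟩ := exists_conj_signSub
  have hkc : (QuotientGroup.mk (c⁻¹ * invA * c) : Cfsg.Spor.Co1) ≠ 1 := by
    intro e
    rw [QuotientGroup.mk_mul, QuotientGroup.mk_mul, QuotientGroup.mk_inv, ← hivd] at e
    have hiv1 : iv = 1 := by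
      calc iv = (QuotientGroup.mk c : Cfsg.Spor.Co1) *
            ((QuotientGroup.mk c)⁻¹ * iv * QuotientGroup.mk c) * (QuotientGroup.mk c)⁻¹ := by group
        _ = 1 := by rw [e]; group
    rw [hiv1, one_mul, mul_one] at hivc
    have h5 : sg ^ 5 = 1 := by
      have : sg * sg ^ 5 = sg * 1 := by rw [← pow_succ', mul_one]; exact hivc.symm
      exact mul_left_cancel this
    exact hsg1 (by
      calc sg = (sg ^ 5) ^ 3 * ((sg ^ 7) ^ 2)⁻¹ := by group
        _ = 1 := by rw [h5, hsg7]; group)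
  obtain ⟨t, ht, hte⟩ := exists_sign_lift (D.twist c) hc hkc
  have hte' : iv = D.e (QuotientGroup.mk t) := by
    have h1 : (D.twist c).e (QuotientGroup.mk t) =
        (QuotientGroup.mk c : Cfsg.Spor.Co1)⁻¹ * D.e (QuotientGroup.mk t) * QuotientGroup.mk c := by
      show (MulAut.conj (QuotientGroup.mk c : Cfsg.Spor.Co1)⁻¹) (D.e _) = _
      rw [MulAut.conj_apply, inv_inv]
    rw [h1, QuotientGroup.mk_mul, QuotientGroup.mk_mul, QuotientGroup.mk_inv] at hte
    exact mul_left_cancel (mul_right_cancel hte)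
  have hiv2 : iv * iv = 1 := by
    rw [hte', ← map_mul, ← QuotientGroup.mk_mul, ht, QuotientGroup.mk_one, map_one]
  set y := t * (S.bC * t * S.bC⁻¹) with hyd
  have hy : D.e (QuotientGroup.mk y) = sg ^ 5 := by
    rw [hyd, QuotientGroup.mk_mul, QuotientGroup.mk_mul, QuotientGroup.mk_mul, QuotientGroup.mk_inv,
      map_mul, map_mul, map_mul, map_inv, ← hte', S.hb]
    show iv * (sg * iv * sg⁻¹) = _
    calc iv * (sg * iv * sg⁻¹) = (iv * sg) * iv * sg⁻¹ := by group
      _ = sg ^ 6 * (iv * iv) * sg⁻¹ := by rw [hivc]; group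
      _ = sg ^ 5 := by rw [hiv2, mul_one, pow_succ, mul_inv_cancel_right]
  set n : ℕ := 2 ^ 25 * 5 with hn
  have hyn : D.e (QuotientGroup.mk (y ^ n)) = sg := by
    rw [QuotientGroup.mk_pow, map_pow, hy, ← pow_mul,
      show 5 * n = 7 * 119837257 + 1 by rw [hn]; norm_num, pow_succ, pow_mul, hsg7, one_pow, one_mul]
  have hy7Q : y ^ 7 ∈ Q := by
    rw [← QuotientGroup.eq_one_iff, ← D.e.map_eq_one_iff, QuotientGroup.mk_pow, map_pow, hy,
      ← pow_mul, mul_comm, pow_mul, hsg7, one_pow]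
  have hy7 : (y ^ n) ^ 7 = 1 := by
    rw [← pow_mul, mul_comm, pow_mul, hn, pow_mul]
    have : (⟨_, hy7Q⟩ : Q) ^ 2 ^ 25 = 1 := by rw [← D.hset.2.2.2.1]; exact pow_card_eq_one'
    rw [show (y ^ 7) ^ 2 ^ 25 = 1 from congrArg Subtype.val this, one_pow]
  have hord : orderOf (y ^ n) = 7 := by
    haveI : Fact (Nat.Prime 7) := ⟨by norm_num⟩
    refine orderOf_eq_prime hy7 fun e => hsg1 ?_
    rw [← hyn, e, QuotientGroup.mk_one, map_one]
  obtain ⟨u, huQ, hu⟩ := conj_lift_seven Q D.hset.2.2.2.1 S.orderC hord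
    (D.e.injective (hyn.trans S.hb.symm))
  have hinv : t * y * t⁻¹ = y⁻¹ := by
    have ht' : t⁻¹ = t := inv_eq_of_mul_eq_one_right ht
    rw [hyd, mul_inv_rev, show (S.bC * t * S.bC⁻¹)⁻¹ = S.bC * t * S.bC⁻¹ by
      rw [mul_inv_rev, mul_inv_rev, inv_inv, ht', mul_assoc]]
    rw [← mul_assoc, ht, one_mul]
  refine ⟨u * t * u⁻¹, ?_, ?_, ?_⟩
  · calc u * t * u⁻¹ * (u * t * u⁻¹) = u * (t * t) * u⁻¹ := by group
      _ = 1 := by rw [ht]; group
  · rw [← hu]
    calc u * t * u⁻¹ * (u * y ^ n * u⁻¹) * (u * t * u⁻¹)⁻¹ = u * (t * y ^ n * t⁻¹) * u⁻¹ := by group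
      _ = u * (y⁻¹) ^ n * u⁻¹ := by rw [← conj_pow, hinv]
      _ = (u * y ^ n * u⁻¹)⁻¹ := by rw [inv_pow]; group
  · rw [QuotientGroup.mk_mul, QuotientGroup.mk_mul, QuotientGroup.mk_inv,
      (QuotientGroup.eq_one_iff u).2 huQ, one_mul, inv_one, mul_one, hte']

/-- The inverting involution is not inner on the layer of the centralizer of `b`. -/
theorem not_inner [hn : ((Subgroup.zpowers b).subgroupOf
    (Subgroup.centralizer ((Subgroup.zpowers b : Subgroup G) : Set G))).Normal]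
    {t : Subgroup.centralizer ({z} : Set G)} (htb : t * S.bC * t⁻¹ = S.bC⁻¹)
    (hte : (QuotientGroup.mk invA : Cfsg.Spor.Co1) = D.e (QuotientGroup.mk t))
    (l : G) (hl : l * b = b * l)
    (h : ∀ x : Subgroup.centralizer ((Subgroup.zpowers b : Subgroup G) : Set G),
      x ∈ Cfsg.layer ↥(Subgroup.centralizer ((Subgroup.zpowers b : Subgroup G) : Set G)) →
      (t : G) * (x : G) * (t : G)⁻¹ = l * (x : G) * l⁻¹) : False := by
  have hlz : l * z = z * l := by
    have h1 := h _ (inC_mem_layer S S.zF)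
    rw [show ((inC S S.zF : Subgroup.centralizer ((Subgroup.zpowers b : Subgroup G) : Set G)) : G) = z
      from rfl, Subgroup.mem_centralizer_singleton_iff.1 t.2, mul_inv_cancel_right] at h1
    exact (mul_inv_eq_iff_eq_mul.1 h1.symm)
  set a : cen b z := ⟨l, Subgroup.mem_centralizer_singleton_iff.2 hlz,
    Subgroup.mem_centralizer_singleton_iff.2 hl⟩ with had
  set r := S.sec (Held.unit6 0) with hr
  set q := S.qOf r with hqd
  have hqr : gv q = ((r : cen b z) : G) := S.gv_qOf r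
  have hv := S.fixV_vec r
  have hcls := S.cls_vec r
  have h1 := D.cls_conj t invA hte hv.1 q hcls
  have h2 := D.cls_conj (⟨(a : G), a.2.1⟩ : Subgroup.centralizer ({z} : Set G)) _ (S.kOf_spec a) hv.1 q hcls
  have heq : D.mod.cls (act invA (S.vec r)) = D.mod.cls (act (S.kOf a : Co0) (S.vec r)) := by
    rw [h1, h2]
    congr 1
    apply gv_injective
    show (t : G) * gv q * (t : G)⁻¹ = (a : G) * gv q * (a : G)⁻¹
    rw [hqr]
    exact h _ (inC_mem_layer S r)
  have hcode : Held.code (S.vec r) = Held.code (eight oo) := by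
    rw [Held.code_eight]; exact S.cd_sec _
  have e1 := Held.code_act_congr invA hv Held.fixV_eight hcode
  have e2 := Held.code_act_congr (S.kOf a : Co0) hv Held.fixV_eight hcode
  have e3 := S.code_unique (fixV_invA hv) (Held.fixV_actK (S.kOf a).2 hv) heq
  rw [e1, e2] at e3
  exact not_inOne (e3 ▸ (Held.inOne_eight (S.kOf a).2).1)

/-- The automizer of the subgroup generated by `b` has order 6. -/
theorem relIndex_six :
    (Subgroup.centralizer ((Subgroup.zpowers b : Subgroup G) : Set G)).relIndex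
      (Subgroup.normalizer ((Subgroup.zpowers b : Subgroup G) : Set G)) = 6 := by
  obtain ⟨g, hg⟩ := exists_image S Held.gK
  have hy : orderOf (g * S.bC * g⁻¹) = 7 := by
    rw [← S.orderC]
    exact orderOf_injective (MulAut.conj g).toMonoidHom (MulAut.conj g).injective S.bC
  have hb3 : orderOf (S.bC ^ 3) = 7 := by
    rw [orderOf_pow' _ (by norm_num), S.orderC]; rfl
  obtain ⟨u, -, hu⟩ := conj_lift_seven Q D.hset.2.2.2.1 hb3 hy (by
    apply D.e.injective
    rw [QuotientGroup.mk_mul, QuotientGroup.mk_mul, QuotientGroup.mk_inv, map_mul, map_mul, map_inv,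
      ← hg, QuotientGroup.mk_pow, map_pow, S.hb, ← QuotientGroup.mk_mul, Held.gK_conj,
      QuotientGroup.mk_mul, QuotientGroup.mk_pow, mul_inv_cancel_right])
  set w : G := (u : G) * (g : G) with hw
  have hwb : w * b * w⁻¹ = b ^ 3 := by
    have := congrArg Subtype.val hu
    simp only [Subgroup.coe_mul, Subgroup.coe_inv, SubmonoidClass.coe_pow] at this
    rw [← this, hw]; group
  have hmap : (Subgroup.zpowers b).map (MulAut.conj w).toMonoidHom = Subgroup.zpowers b := by
    rw [MonoidHom.map_zpowers]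
    show Subgroup.zpowers (w * b * w⁻¹) = _
    rw [hwb]
    refine le_antisymm (Subgroup.zpowers_le.2 (pow_mem (Subgroup.mem_zpowers b) 3))
      (Subgroup.zpowers_le.2 ?_)
    have h5 : (b ^ 3) ^ 5 = b := by
      rw [← pow_mul, show 3 * 5 = 7 * 2 + 1 from rfl, pow_succ, pow_mul, S.b_pow_seven, one_pow,
        one_mul]
    exact Subgroup.mem_zpowers_iff.2 ⟨5, by rw [show (5 : ℤ) = ((5 : ℕ) : ℤ) from rfl, zpow_natCast, h5]⟩
  have hwN : w ∈ Subgroup.normalizer ((Subgroup.zpowers b : Subgroup G) : Set G) := by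
    rw [Subgroup.mem_normalizer_iff]
    intro x
    constructor
    · intro hx
      rw [← hmap]
      exact ⟨x, hx, rfl⟩
    · intro hx
      rw [← hmap] at hx
      obtain ⟨x', hx', e⟩ := hx
      rwa [← (MulAut.conj w).injective e]
  set f := (Subgroup.zpowers b).normalizerMonoidHom with hf
  set o := f ⟨w, hwN⟩ with ho
  have hB : Nat.card (Subgroup.zpowers b) = 7 := by rw [Nat.card_zpowers, S.ord]
  have hA : Nat.card (MulAut (Subgroup.zpowers b)) = 6 := by
    rw [IsCyclic.card_mulAut, hB, Nat.totient_prime (by norm_num)]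
  have hval : ∀ n : ℕ, ((o ^ n) ⟨b, Subgroup.mem_zpowers b⟩ : G) = b ^ 3 ^ n := by
    intro n
    induction n with
    | zero => simp
    | succ n ih =>
      rw [pow_succ', MulAut.mul_apply]
      show w * ((o ^ n) ⟨b, Subgroup.mem_zpowers b⟩ : G) * w⁻¹ = _
      rw [ih, ← conj_pow, hwb, ← pow_mul, pow_succ']
  have hne : ∀ n : ℕ, 3 ^ n % 7 ≠ 1 → o ^ n ≠ 1 := by
    intro n hn e
    have h1 := hval n
    rw [e, MulAut.one_apply] at h1
    have h2 : b ^ 1 = b ^ 3 ^ n := by rw [pow_one]; exact h1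
    rw [pow_inj_mod, S.ord] at h2
    exact hn h2.symm
  have hoo : orderOf o = 6 := by
    have hd : orderOf o ∣ 6 := hA ▸ orderOf_dvd_natCard o
    have hle := Nat.le_of_dvd (by norm_num) hd
    have hnot : ∀ n, 3 ^ n % 7 ≠ 1 → orderOf o ≠ n := fun n hn e => hne n hn (e ▸ pow_orderOf_eq_one o)
    have h1 := hnot 1 (by norm_num)
    have h2 := hnot 2 (by norm_num)
    have h3 := hnot 3 (by norm_num)
    interval_cases (orderOf o) <;> simp_all
  rw [Subgroup.relIndex, ← Subgroup.normalizerMonoidHom_ker, Subgroup.index_ker]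
  refine le_antisymm (hA ▸ Subgroup.card_le_card_group _) ?_
  rw [← hoo, ← Nat.card_zpowers]
  exact Subgroup.card_le_of_le (Subgroup.zpowers_le.2 ⟨_, rfl⟩)

end Cfsg.Agent.H65.Monster
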