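import Cfsg.Agent.H65.Monster.SwapData
import Cfsg.Agent.H18.Monster.HeldExtra

/-!
The involution inverting the permutation of type `1^3 7^3` is conjugate to a sign change, and it
interchanges the two halves of the fixed sublattice modulo two.
-/

set_option autoImplicit false
set_option maxRecDepth 100000

namespace Cfsg.Agent.H65.Monster

open Cfsg Cfsg.Agent.H14 Cfsg.Agent.H18.Monster Finset

theorem inv_ok : invMat.ok = true := by decide +kernel

theorem invMat_powTest : Held.powTest invMat 6 = true := by decide +kernel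

/-- The involution. -/
noncomputable def invA : Co0 := H15.matAut invMat inv_ok

theorem invA_conj : invA * Held.sigA = Held.sigA ^ 6 * invA := Held.mat_conj inv_ok invMat_powTest

theorem sigA_pow_thirtysix : (Held.sigA ^ 6) ^ 6 = Held.sigA := by
  rw [← pow_mul, show 6 * 6 = 7 * 5 + 1 from rfl, pow_add, pow_mul, Held.sigA_seven, one_pow,
    one_mul, pow_one]

/-- The involution preserves the fixed vectors. -/
theorem fixV_invA {v : V} (hv : Held.FixV v) : Held.FixV (act invA v) := by
  have hkL := isLeech_act invA hv.1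
  refine ⟨hkL, ?_⟩
  have h1 : act (Held.sigA ^ 6) (act invA v) = act invA v := by
    rw [← mul_act, ← invA_conj, mul_act, Held.act_sigA hv.1, hv.2]
  rw [← Held.act_sigA hkL]
  have h5 : ∀ m : ℕ, act ((Held.sigA ^ 6) ^ m) (act invA v) = act invA v := by
    intro m
    induction m with
    | zero => rw [pow_zero, one_act]
    | succ m ih => rw [pow_succ', mul_act, ih, h1]
  have := h5 6
  rwa [sigA_pow_thirtysix] at this

theorem code_invA_eight : Held.code (act invA (eight oo)) = Held.bits 16 := by
  rw [show (eight oo : V) = _ from funext Held.eight_list]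
  obtain ⟨e, hl⟩ := Held.act_matAut (b := (List.range 24).map fun i => if i = 23 then (8 : ℤ) else 0)
    inv_ok (by simp) (by
      rw [← show (eight oo : V) = _ from funext Held.eight_list]; exact isLeech_eight oo)
  rw [invA, e, Held.code_toVec hl]
  decide +kernel

/-- The image is not in the first half. -/
theorem not_inOne : ¬ Held.InOne (Held.code (act invA (eight oo))) := by
  rw [code_invA_eight]; unfold Held.InOne; decide +kernel

/-- The first frame vector. -/
noncomputable abbrev fr (i : Fin 24) : List ℤ := frameL.getD i.val []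

/-- The list of a half difference. -/
noncomputable abbrev halfDiff (i : Fin 24) : List ℤ :=
  List.zipWith (fun a b => (a - b) / 2) (fr i) (fr 0)

theorem frame_ok : ∀ i : Fin 24, H15.leechOk (fr i) = true ∧ (fr i).length = 24 ∧
    H15.listDot (fr i) (fr i) = 64 ∧
    H15.leechOk (halfDiff i) = true ∧
    (List.range 24).all (fun j =>
      (fr i).getD j 0 - (fr 0).getD j 0 == 2 * (halfDiff i).getD j 0) = true ∧
    (Held.actL invMat (fr i) = fr i ∨ Held.actL invMat (fr i) = (fr i).map fun a => -a) := by
  decide +kernel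

theorem frame_ne : ∀ i j : Fin 24, i ≠ j → fr i ≠ fr j ∧ fr i ≠ (fr j).map fun a => -a := by
  decide +kernel

theorem toVec_injOn {a b : List ℤ} (ha : a.length = 24) (hb : b.length = 24)
    (h : H15.toVec a = H15.toVec b) : a = b := by
  refine List.ext_getElem (ha.trans hb.symm) fun n h1 h2 => ?_
  obtain ⟨p, hp⟩ := H15.exists_idx (i := n) (ha ▸ h1)
  have := congrFun h p
  simp only [H15.toVec, hp] at this
  rwa [List.getD_eq_getElem _ _ h1, List.getD_eq_getElem _ _ h2] at this

theorem toVec_neg (l : List ℤ) : H15.toVec (l.map fun a => -a) = -H15.toVec l := by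
  funext p
  simp only [H15.toVec, Pi.neg_apply, List.getD_eq_getElem?_getD, List.getElem?_map]
  cases l[H15.idx p]? <;> simp

theorem sqNorm_frame (i : Fin 24) : sqNorm (H15.toVec (fr i)) = 64 := by
  obtain ⟨-, hl, hn, -⟩ := frame_ok i
  rw [← hn, ← Held.dot_toVec hl hl]
  simp [sqNorm, dotInt, pow_two]

theorem act_invA_frame (i : Fin 24) :
    act invA (H15.toVec (fr i)) = H15.toVec (fr i) ∨
      act invA (H15.toVec (fr i)) = -H15.toVec (fr i) := by
  obtain ⟨hL, hl, -, -, -, h⟩ := frame_ok i
  rw [invA, (Held.act_matAut inv_ok hl (H15.leechOk_spec hL)).1]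
  rcases h with h | h <;> rw [h]
  · exact Or.inl rfl
  · exact Or.inr (toVec_neg _)

theorem frame_congr (i : Fin 24) : ∃ t, IsLeech t ∧
    H15.toVec (fr i) - H15.toVec (fr 0) = 2 • t := by
  obtain ⟨-, -, -, ht, hd, -⟩ := frame_ok i
  refine ⟨_, H15.leechOk_spec ht, ?_⟩
  funext p
  have h := List.all_eq_true.1 hd (H15.idx p) (List.mem_range.2 (H15.idx_lt p))
  simpa [H15.toVec] using h

/-- The involution is conjugate to a sign change. -/
theorem exists_conj_signSub : ∃ c : Co0, c⁻¹ * invA * c ∈ signSub := by
  have hu : ∀ i, IsLeech (H15.toVec (fr i)) := fun i => H15.leechOk_spec (frame_ok i).1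
  obtain ⟨g, -, e⟩ := exists_act_eight (hu 0) (sqNorm_frame 0)
  have hstd : act g (H15.toVec (fr 0)) ∈ stdCross := mem_stdCross_iff.2 (by
    rcases e with e | e
    exacts [⟨oo, Or.inl e⟩, ⟨ll, Or.inr e⟩])
  have hmem : ∀ i, ∃ p, act g (H15.toVec (fr i)) = eight p ∨
      act g (H15.toVec (fr i)) = -eight p := by
    intro i
    refine mem_stdCross_iff.1 ?_
    obtain ⟨q, hq⟩ := mem_stdCross_iff.1 hstd
    rw [← cross_eight oo] at hstd ⊢
    obtain ⟨t, ht, et⟩ := frame_congr i
    obtain ⟨-, -, s, hs, es⟩ := mem_cross_iff.1 hstd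
    refine mem_cross_iff.2 ⟨isLeech_act g (hu i), ?_, s - act g t, hs.sub (isLeech_act g ht), ?_⟩
    · rw [sqNorm_act g (hu i), sqNorm_frame, sqNorm_eight]
    · rw [smul_sub, ← es, ← act_two_smul g ht, ← et, act_sub g (hu i) (hu 0)]
      abel
  choose p hp using hmem
  have hinj : Function.Injective p := by
    intro i j hij
    by_contra hne
    obtain ⟨h1, h2⟩ := frame_ne i j hne
    have hli := (frame_ok i).2.1
    have hlj := (frame_ok j).2.1
    have key : act g (H15.toVec (fr i)) = act g (H15.toVec (fr j)) ∨
        act g (H15.toVec (fr i)) = act g (-H15.toVec (fr j)) := by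
      rw [act_neg g (hu j)]
      rcases hp i with a | a <;> rcases hp j with b | b <;> rw [a, b, hij]
      · exact Or.inl rfl
      · exact Or.inr (neg_neg _).symm
      · exact Or.inr rfl
      · exact Or.inl rfl
    rcases key with k | k <;> have k' := congrArg (act g⁻¹) k <;>
      rw [inv_act_act, inv_act_act] at k'
    · exact h1 (toVec_injOn hli hlj k')
    · rw [← toVec_neg] at k'
      exact h2 (toVec_injOn hli (by rw [List.length_map, hlj]) k')
  have hsur : Function.Surjective p :=
    ((Fintype.bijective_iff_injective_and_card p).2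
      ⟨hinj, Fintype.card_congr H9.gEquiv.symm⟩).2
  refine ⟨g⁻¹, fun q => ?_⟩
  obtain ⟨i, rfl⟩ := hsur q
  rw [inv_inv, mul_act, mul_act]
  have h8 := isLeech_eight (p i)
  have hvec : act g⁻¹ (eight (p i)) = H15.toVec (fr i) ∨
      act g⁻¹ (eight (p i)) = -H15.toVec (fr i) := by
    rcases hp i with a | a
    · left; rw [← a, inv_act_act]
    · right
      have a' : eight (p i) = -act g (H15.toVec (fr i)) := by rw [a, neg_neg]
      rw [a', ← act_neg g (hu i), inv_act_act]
  rcases hvec with v | v <;> rw [v]
  · rcases act_invA_frame i with w | w <;> rw [w]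
    · rcases hp i with a | a <;> rw [a]
      exacts [Or.inl rfl, Or.inr rfl]
    · rw [act_neg g (hu i)]
      rcases hp i with a | a <;> rw [a]
      exacts [Or.inr rfl, Or.inl (neg_neg _)]
  · rw [act_neg invA (hu i)]
    rcases act_invA_frame i with w | w <;> rw [w]
    · rw [act_neg g (hu i)]
      rcases hp i with a | a <;> rw [a]
      exacts [Or.inr rfl, Or.inl (neg_neg _)]
    · rw [neg_neg]
      rcases hp i with a | a <;> rw [a]
      exacts [Or.inl rfl, Or.inr rfl]

end Cfsg.Agent.H65.Monster
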